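import Cfsg.Prelude.Def_SteinbergCover
import Cfsg.Agent.Lib.Chev.Checks

/-! Perfectness of the group presented by the relators (R1), (R2). -/

set_option autoImplicit false
set_option linter.unusedSimpArgs false
set_option linter.unusedVariables false
set_option linter.unusedSectionVars false

namespace Cfsg.Agent.Lib.Chev.Cov

open Cfsg Cfsg.Lie
open scoped commutatorElement

variable (D : ChevalleyDatum) {K : Type*} [Field K]

/-- The element of the presented group attached to a word. -/
noncomputable def wC (w : List (ℕ × K)) : D.SteinbergCover K :=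
  (w.map fun p => D.scGen K p.1 p.2).prod

theorem mk_stX' (r : ℕ) (t : K) : PresentedGroup.mk (D.steinbergRelsAB K) (D.stX r t) = D.scGen K r t := rfl

theorem mk_stWord' (w : List (ℕ × K)) : PresentedGroup.mk (D.steinbergRelsAB K) (D.stWord w) = wC D w := by
  induction w with
  | nil => simp [ChevalleyDatum.stWord, wC]
  | cons a w ih =>
    simp only [ChevalleyDatum.stWord, wC, List.map_cons, List.prod_cons, map_mul] at ih ⊢
    rw [ih]
    rfl

theorem wC_nil : wC D ([] : List (ℕ × K)) = 1 := rfl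

theorem wC_cons (a : ℕ × K) (w : List (ℕ × K)) : wC D (a :: w) = D.scGen K a.1 a.2 * wC D w := by
  simp [wC]

theorem R1 {r : ℕ} (hr : r < D.nroots) (t u : K) : D.scGen K r t * D.scGen K r u = D.scGen K r (t + u) := by
  have h : D.stX r t * D.stX r u * (D.stX r (t + u))⁻¹ ∈ D.steinbergRelsAB K :=
    Or.inl ⟨r, t, u, hr, rfl⟩
  have h1 := PresentedGroup.one_of_mem h
  rw [map_mul, map_mul, map_inv, mul_inv_eq_one] at h1
  exact h1

theorem R2 {r s : ℕ} (hr : r < D.nroots) (hs : s < D.nroots) (h1 : s ≠ r) (h2 : s ≠ D.neg r) (t u : K) :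
    D.scGen K s u * D.scGen K r t = D.scGen K r t * D.scGen K s u * wC D (D.commWord K r s t u) := by
  have h : (D.stX s u)⁻¹ * (D.stX r t)⁻¹ * D.stX s u * D.stX r t * (D.stWord (D.commWord K r s t u))⁻¹ ∈
      D.steinbergRelsAB K :=
    Or.inr ⟨r, s, t, u, hr, hs, h1, h2, rfl⟩
  have h3 := PresentedGroup.one_of_mem h
  simp only [map_mul, map_inv, mul_inv_eq_one, mk_stWord', mk_stX'] at h3
  rw [← h3]
  group

theorem closure_scGen : Subgroup.closure (Set.range fun p : Fin D.nroots × K => D.scGen K p.1 p.2) = ⊤ := by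
  have h1 := PresentedGroup.closure_range_of (D.steinbergRelsAB K)
  convert h1 using 2
  ext z
  constructor
  · rintro ⟨p, rfl⟩
    refine ⟨p, ?_⟩
    show PresentedGroup.mk (D.steinbergRelsAB K) (FreeGroup.of p) = D.scGen K p.1 p.2
    unfold ChevalleyDatum.scGen ChevalleyDatum.stX
    rw [dif_pos p.1.isLt]
  · rintro ⟨p, rfl⟩
    refine ⟨p, ?_⟩
    show D.scGen K p.1 p.2 = PresentedGroup.mk (D.steinbergRelsAB K) (FreeGroup.of p)
    unfold ChevalleyDatum.scGen ChevalleyDatum.stX
    rw [dif_pos p.1.isLt]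

/-- All root elements of a root are commutators. -/
abbrev XC (D : ChevalleyDatum) (K : Type*) [Field K] (r : ℕ) : Prop :=
  ∀ v : K, D.scGen K r v ∈ commutator (D.SteinbergCover K)

variable {D}

theorem wC_mem {w : List (ℕ × K)} (h : ∀ a ∈ w, XC D K a.1) : wC D w ∈ commutator (D.SteinbergCover K) := by
  induction w with
  | nil => exact Subgroup.one_mem _
  | cons a w ih =>
    rw [wC_cons]
    exact Subgroup.mul_mem _ (h a List.mem_cons_self _) (ih fun b hb => h b (List.mem_cons_of_mem _ hb))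

theorem comm_mem {a b : ℕ} (ha : a < D.nroots) (hb : b < D.nroots) (h1 : b ≠ a) (h2 : b ≠ D.neg a) (t u : K) :
    wC D (D.commWord K a b t u) ∈ commutator (D.SteinbergCover K) := by
  have h := R2 D ha hb h1 h2 t u
  obtain ⟨X, hX⟩ : ∃ X, X = D.scGen K a t := ⟨_, rfl⟩
  obtain ⟨Y, hY⟩ : ∃ Y, Y = D.scGen K b u := ⟨_, rfl⟩
  rw [← hX, ← hY] at h
  have e : wC D (D.commWord K a b t u) = ⁅Y⁻¹, X⁻¹⁆ := by
    rw [commutatorElement_def]
    have : Y⁻¹ * X⁻¹ * Y⁻¹⁻¹ * X⁻¹⁻¹ = (X * Y)⁻¹ * (Y * X) := by group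
    rw [this, h]
    group
  rw [e]
  exact Subgroup.commutator_mem_commutator (Subgroup.mem_top _) (Subgroup.mem_top _)

theorem sign_sq' {c : ℤ} (hc : c = 1 ∨ c = -1) : ((c : ℤ) : K) * ((c : ℤ) : K) = 1 := by
  rcases hc with rfl | rfl <;> simp

/-- First stage: the first term of a commutator, when the other terms are known. -/
theorem stage_p {a b p : ℕ} {c : ℤ} {rest : List (ℕ × ℤ × ℕ × ℕ)} (ha : a < D.nroots) (hb : b < D.nroots)
    (h1 : b ≠ a) (h2 : b ≠ D.neg a) (hT : D.commTerms a b = (p, c, 1, 1) :: rest) (hc : c = 1 ∨ c = -1)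
    (hrest : ∀ e ∈ rest, XC D K e.1) : XC D K p := by
  intro v
  have h := comm_mem (K := K) ha hb h1 h2 (-1) ((c : K) * v)
  unfold ChevalleyDatum.commWord at h
  rw [hT, List.map_cons, wC_cons] at h
  have hv : ((c : ℤ) : K) * (-(-1 : K)) ^ 1 * ((c : K) * v) ^ 1 = v := by
    have := sign_sq' (K := K) hc
    simp only [neg_neg, pow_one, mul_one]
    rw [← mul_assoc, this, one_mul]
  simp only at h
  rw [hv] at h
  have h3 : wC D (rest.map fun c_1 => (c_1.1, ((c_1.2.1 : ℤ) : K) * (-(-1 : K)) ^ c_1.2.2.1 * ((c : K) * v) ^ c_1.2.2.2)) ∈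
      commutator (D.SteinbergCover K) := by
    apply wC_mem
    intro e he
    obtain ⟨e', he', rfl⟩ := List.mem_map.mp he
    exact hrest e' he'
  exact (Subgroup.mul_mem_cancel_right _ h3).mp h

/-- Second stage: the second term of a commutator, using a field element different from `0`, `1`. -/
theorem stage_q {a b p q : ℕ} {c1 c2 : ℤ} {rest : List (ℕ × ℤ × ℕ × ℕ)} (ha : a < D.nroots) (hb : b < D.nroots)
    (h1 : b ≠ a) (h2 : b ≠ D.neg a) (hq : q < D.nroots) (hT : D.commTerms a b = (p, c1, 1, 1) :: (q, c2, 2, 1) :: rest)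
    (hc2 : c2 = 1 ∨ c2 = -1)
    (hrest : ∀ e ∈ rest, XC D K e.1) {h : K} (h0 : h ≠ 0) (h11 : h ≠ 1) : XC D K q := by
  intro v
  have key : ∀ t u : K, D.scGen K p ((c1 : K) * (-t) * u) * D.scGen K q ((c2 : K) * t ^ 2 * u) ∈
      commutator (D.SteinbergCover K) := by
    intro t u
    have h3 := comm_mem (K := K) ha hb h1 h2 t u
    unfold ChevalleyDatum.commWord at h3
    rw [hT, List.map_cons, List.map_cons, wC_cons, wC_cons] at h3
    have h4 : wC D (rest.map fun c_1 => (c_1.1, ((c_1.2.1 : ℤ) : K) * (-t) ^ c_1.2.2.1 * u ^ c_1.2.2.2)) ∈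
        commutator (D.SteinbergCover K) := by
      apply wC_mem
      intro e he
      obtain ⟨e', he', rfl⟩ := List.mem_map.mp he
      exact hrest e' he'
    rw [← mul_assoc] at h3
    have h5 := (Subgroup.mul_mem_cancel_right _ h4).mp h3
    simp only [pow_one, neg_sq] at h5
    exact h5
  have hh : h - 1 ≠ 0 := sub_ne_zero.mpr h11
  set u : K := (c2 : K) * v / (h - 1) with hu
  have k1 := key (-1) u
  have k2 := key (-h) (u / h)
  have e1 : (c1 : K) * (-(-1)) * u = (c1 : K) * (-(-h)) * (u / h) := by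
    field_simp
  rw [← e1] at k2
  have k3 := Subgroup.mul_mem _ (Subgroup.inv_mem _ k1) k2
  have e2 : (D.scGen K p ((c1 : K) * (-(-1)) * u) * D.scGen K q ((c2 : K) * (-1) ^ 2 * u))⁻¹ *
      (D.scGen K p ((c1 : K) * (-(-1)) * u) * D.scGen K q ((c2 : K) * (-h) ^ 2 * (u / h))) =
      D.scGen K q v := by
    have e3 : D.scGen K q v = (D.scGen K q ((c2 : K) * (-1) ^ 2 * u))⁻¹ * D.scGen K q ((c2 : K) * (-h) ^ 2 * (u / h)) := by
      rw [eq_inv_mul_iff_mul_eq, R1 D hq]
      congr 1
      have := sign_sq' (K := K) hc2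
      have hu2 : u * (h - 1) = (c2 : K) * v := by
        rw [hu]; field_simp
      have e4 : (c2 : K) * (-h) ^ 2 * (u / h) = (c2 : K) * h * u := by
        field_simp
      rw [e4]
      linear_combination (-(c2 : K)) * hu2 + (-v) * this
    rw [e3]
    group
  rw [e2] at k3
  exact k3

/-- Perfectness from the root elements. -/
theorem perfect_of (h : ∀ r, r < D.nroots → XC D K r) : commutator (D.SteinbergCover K) = ⊤ := by
  rw [eq_top_iff, ← closure_scGen D (K := K), Subgroup.closure_le]
  rintro _ ⟨p, rfl⟩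
  exact h _ p.1.isLt _

/-- Boolean version of the two stages. -/
def lvlStep (D : ChevalleyDatum) (ok : ℕ → Bool) (r : ℕ) : Bool :=
  ok r || (List.range D.nroots).any fun a => (List.range D.nroots).any fun b =>
    !Nat.beq b a && !Nat.beq b (D.neg a) &&
      match D.commTerms a b with
      | (p, c, 1, 1) :: rest => Nat.beq p r && (decide (c = 1) || decide (c = -1)) && rest.all (fun e => ok e.1)
      | _ => false

/-- The second stage as a Boolean. -/
def lvlStep2 (D : ChevalleyDatum) (ok : ℕ → Bool) (r : ℕ) : Bool :=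
  ok r || (r < D.nroots) && (List.range D.nroots).any fun a => (List.range D.nroots).any fun b =>
    !Nat.beq b a && !Nat.beq b (D.neg a) &&
      match D.commTerms a b with
      | (p, c, 1, 1) :: (q, c2, 2, 1) :: rest => Nat.beq q r && (decide (c2 = 1) || decide (c2 = -1)) && rest.all (fun e => ok e.1)
      | _ => false

theorem lvlStep_sound {ok : ℕ → Bool} (hok : ∀ r, ok r = true → XC D K r) (r : ℕ) (h : lvlStep D ok r = true) :
    XC D K r := by
  rcases Bool.or_eq_true_iff.mp h with h1 | h1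
  · exact hok r h1
  obtain ⟨a, ha, h2⟩ := List.any_eq_true.mp h1
  obtain ⟨b, hb, h3⟩ := List.any_eq_true.mp h2
  have ha' : a < D.nroots := List.mem_range.mp ha
  have hb' : b < D.nroots := List.mem_range.mp hb
  simp only [Bool.and_eq_true, Bool.not_eq_true'] at h3
  obtain ⟨⟨h4, h5⟩, h6⟩ := h3
  have h4' : b ≠ a := fun h => by
    subst h
    have : Nat.beq b b = true := Nat.beq_refl b
    rw [this] at h4
    exact Bool.noConfusion h4
  have h5' : b ≠ D.neg a := fun h => by
    have : Nat.beq b (D.neg a) = true := by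
      rw [h]
      exact Nat.beq_refl _
    rw [this] at h5
    exact Bool.noConfusion h5
  split at h6
  · rename_i p c rest hT
    simp only [Bool.and_eq_true, Bool.or_eq_true, decide_eq_true_eq] at h6
    obtain ⟨⟨h7, h8⟩, h9⟩ := h6
    have h7' := Nat.eq_of_beq_eq_true h7
    subst h7'
    exact stage_p ha' hb' h4' h5' hT h8 (fun e he => hok _ (List.all_eq_true.mp h9 e he))
  · exact Bool.noConfusion h6

theorem lvlStep2_sound {ok : ℕ → Bool} (hok : ∀ r, ok r = true → XC D K r) {h : K} (h0 : h ≠ 0) (h11 : h ≠ 1)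
    (r : ℕ) (hh : lvlStep2 D ok r = true) : XC D K r := by
  rcases Bool.or_eq_true_iff.mp hh with h1 | h1
  · exact hok r h1
  simp only [Bool.and_eq_true, decide_eq_true_eq] at h1
  obtain ⟨hr, h1⟩ := h1
  obtain ⟨a, ha, h2⟩ := List.any_eq_true.mp h1
  obtain ⟨b, hb, h3⟩ := List.any_eq_true.mp h2
  have ha' : a < D.nroots := List.mem_range.mp ha
  have hb' : b < D.nroots := List.mem_range.mp hb
  simp only [Bool.and_eq_true, Bool.not_eq_true'] at h3
  obtain ⟨⟨h4, h5⟩, h6⟩ := h3
  have h4' : b ≠ a := fun h => by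
    subst h
    have : Nat.beq b b = true := Nat.beq_refl b
    rw [this] at h4
    exact Bool.noConfusion h4
  have h5' : b ≠ D.neg a := fun h => by
    have : Nat.beq b (D.neg a) = true := by
      rw [h]
      exact Nat.beq_refl _
    rw [this] at h5
    exact Bool.noConfusion h5
  split at h6
  · rename_i p c q c2 rest hT
    simp only [Bool.and_eq_true, Bool.or_eq_true, decide_eq_true_eq] at h6
    obtain ⟨⟨h7, h8⟩, h9⟩ := h6
    have h7' := Nat.eq_of_beq_eq_true h7
    subst h7'
    exact stage_q ha' hb' h4' h5' hr hT h8 (fun e he => hok _ (List.all_eq_true.mp h9 e he)) h0 h11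
  · exact Bool.noConfusion h6

/-- Some commutator of root elements is a single root element with coefficient `±1`. -/
def chkP1 (T : Tbl) : Bool :=
  allLt T.n fun r => (List.range T.n).any fun a => (List.range T.n).any fun b =>
    !Nat.beq b a && !Nat.beq b (T.neg a) &&
      match commT T.ce a b with
      | [c] => Nat.beq c.1 r && (decide (c.2.1 = 1) || decide (c.2.1 = -1)) && Nat.beq c.2.2.1 1 && Nat.beq c.2.2.2 1
      | _ => false

theorem perfect_of_chk (hP : chkP1 (tblOf D) = true) : commutator (D.SteinbergCover K) = ⊤ := by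
  apply perfect_of
  intro r hr
  have h1 := (allLt_iff _ _).mp hP r hr
  obtain ⟨a, ha, h2⟩ := List.any_eq_true.mp h1
  obtain ⟨b, hb, h3⟩ := List.any_eq_true.mp h2
  have ha' : a < D.nroots := List.mem_range.mp ha
  have hb' : b < D.nroots := List.mem_range.mp hb
  simp only [Bool.and_eq_true, Bool.not_eq_true'] at h3
  obtain ⟨⟨h4, h5⟩, h6⟩ := h3
  have h4' : b ≠ a := fun h => by
    subst h
    have : Nat.beq b b = true := Nat.beq_refl b
    rw [this] at h4
    exact Bool.noConfusion h4
  have h5' : b ≠ D.neg a := fun h => by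
    have : Nat.beq b ((tblOf D).neg a) = true := by
      rw [h]
      exact Nat.beq_refl _
    rw [this] at h5
    exact Bool.noConfusion h5
  have hct : commT (tblOf D).ce a b = D.commTerms a b := commT_eq D a b
  rw [hct] at h6
  generalize hC : D.commTerms a b = C at h6
  match C, h6 with
  | [c], h6 =>
    simp only [Bool.and_eq_true, Bool.or_eq_true, decide_eq_true_eq] at h6
    obtain ⟨⟨⟨h7, h8⟩, h9⟩, h10⟩ := h6
    have h7' := Nat.eq_of_beq_eq_true h7
    have h9' := Nat.eq_of_beq_eq_true h9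
    have h10' := Nat.eq_of_beq_eq_true h10
    obtain ⟨c1, c2, c3, c4⟩ := c
    simp only at h7' h8 h9' h10'
    subst h7' h9' h10'
    exact stage_p ha' hb' h4' h5' hC h8 (by simp)
  | [], h6 => exact Bool.noConfusion h6
  | _ :: _ :: _, h6 => exact Bool.noConfusion h6

end Cfsg.Agent.Lib.Chev.Cov
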