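import Cfsg.Agent.Lib.Chev.BruhatNF
import Cfsg.Agent.Lib.Chev.All2

/-! Group elements with a diagonal matrix lie in `H`. -/

set_option autoImplicit false
set_option linter.unusedSimpArgs false
set_option linter.unusedVariables false
set_option linter.unusedSectionVars false

namespace Cfsg.Agent.Lib.Chev

open Cfsg Cfsg.Lie Matrix

variable {D : ChevalleyDatum} {F : Type*} [Field F]

namespace Good2

variable (G : Good2 D)
include G

theorem N0_Tri_mem_H {n : GL D.Idx F} (hn : n ∈ G.N0 F) (hT : Tri (· < ·) (n : Matrix D.Idx D.Idx F)) :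
    n ∈ D.diagonalSubgroup F := by
  obtain ⟨w, hw, -⟩ := G.N0_le_mono hn
  have hw1 : w = 1 := by
    apply perm_eq_one_of_le
    intro s
    by_cases hs : w s = s
    · rw [hs]
    · have h3 := hw.entry s
      have h4 : phi D (Sum.inr s) < phi D (Sum.inr (w s)) :=
        hT (Sum.inr s) (Sum.inr (w s)) (by simpa using hs) h3
      rw [phi_lt_iff] at h4
      omega
  rw [hw1] at hw
  exact G.H_of_isMono_one hn hw

/-- An element of the group with upper triangular matrix lies in `B`. -/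
theorem Tri_mem_B {g : GL D.Idx F} (hg : g ∈ D.group F) (hT : Tri (· < ·) (g : Matrix D.Idx D.Idx F)) :
    g ∈ D.borelSubgroup F := by
  obtain ⟨b, hb, n, hn, u, hu, rfl⟩ := G.normal_exists hg
  have htr : ∀ a b c : ℕ, a < b → b < c → a < c := fun a b c h1 h2 => h1.trans h2
  have hUB := G.U_le_B (Um_le_U n hu)
  have h1 : n = b⁻¹ * (b * n * u) * u⁻¹ := by group
  have h2 : Tri (· < ·) (n : Matrix D.Idx D.Idx F) := by
    rw [h1, Units.val_mul, Units.val_mul]
    exact Tri_mul htr (Tri_mul htr (G.B_Tri (Subgroup.inv_mem _ hb)) hT) (G.B_Tri (Subgroup.inv_mem _ hUB))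
  have h3 := G.N0_Tri_mem_H ((G.monomial_eq (F := F)).le hn) h2
  exact Subgroup.mul_mem _ (Subgroup.mul_mem _ hb (G.H_le_B h3)) hUB

/-- An element of the group with diagonal matrix lies in `H`. -/
theorem diag_mem_H {g : GL D.Idx F} (hg : g ∈ D.group F) (χ : ℕ → F)
    (he : (g : Matrix D.Idx D.Idx F) = dgM D χ) : g ∈ D.diagonalSubgroup F := by
  have hB := G.Tri_mem_B hg (by rw [he]; exact dgM_Tri _ _)
  obtain ⟨v, hv, k, hk, rfl⟩ := G.B_form.mp hB
  obtain ⟨χ', h1, h2⟩ := G.H_form hk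
  have hinv : (k⁻¹ : GL D.Idx F) ∈ D.diagonalSubgroup F := Subgroup.inv_mem _ hk
  obtain ⟨χ'', h3, h4⟩ := G.H_form hinv
  have h5 : (v : Matrix D.Idx D.Idx F) = dgM D χ * dgM D χ'' := by
    rw [← he, ← h4, ← Units.val_mul]
    congr 2
    group
  have hU := G.U_UTri hv
  have h6 : (v : Matrix D.Idx D.Idx F) = 1 := by
    apply eq_one_of_tri hU.1 _ hU.2
    rw [h5, dgM_mul]
    exact dgM_Tri _ _
  have h7 : v = 1 := Units.ext h6
  rw [h7, one_mul]
  exact hk

end Good2

end Cfsg.Agent.Lib.Chev
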