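import Cfsg.Agent.Lib.Chev.Sub.Weak
import Cfsg.Agent.Lib.Chev.Sub.High
import Cfsg.Agent.Lib.Chev.Long
import Cfsg.Agent.Lib.Chev.Levi
import Cfsg.Agent.Lib.Chev.All3
import Cfsg.Agent.Lib.Chev.TorusGen
import Cfsg.Agent.Lib.Components.Local2

/-! The centralizer of a maximal unipotent radical in its parabolic, and `F*(P_J)`. -/

set_option autoImplicit false
set_option linter.unusedSimpArgs false
set_option linter.unusedVariables false
set_option linter.unusedSectionVars false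

namespace Cfsg.Agent.Lib.Chev

open Cfsg Cfsg.Lie Matrix
open Good2 (NN Ut)

variable {D : ChevalleyDatum} {F : Type*} [Field F]

/-- The positive roots with non-zero coefficient at `i`. -/
def Qi (D : ChevalleyDatum) (i r : ℕ) : Prop := NN D ≤ r ∧ r < D.nroots ∧ cor D r i ≠ 0

/-- The positive roots with zero coefficient at `i`. -/
def Li (D : ChevalleyDatum) (i r : ℕ) : Prop := NN D ≤ r ∧ r < D.nroots ∧ cor D r i = 0

/-- The table facts. -/
structure FitT (G : Good3 D) : Prop where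
  down : ∀ i k, i < D.rank → k < D.rank → ∃ r, NN D ≤ r ∧ r < D.nroots ∧ cor D r i ≠ 0 ∧ G.W k r < r
  chi : ∀ i j, i < D.rank → j < D.rank → i ≠ j → ∃ v q, NN D ≤ v ∧ v < D.nroots ∧ cor D v i ≠ 0 ∧
    (q, 0) ∈ (D.chainEntry (D.simple j) v).zipIdx ∧ NN D ≤ q.1 ∧ q.1 < D.nroots ∧ cor D q.1 i ≠ 0
  word : ∀ i, i < D.rank → ∃ l : List ℕ, (∀ k ∈ l, k < D.rank ∧ k ≠ i) ∧ ∀ r, NN D ≤ r → r < D.nroots →
    (cor D r i = 0 → l.foldr G.W r < NN D) ∧ (cor D r i ≠ 0 → NN D ≤ l.foldr G.W r)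

namespace Good2

variable (G : Good2 D)
include G

theorem xg_congr' {r r' : ℕ} (h : r = r') (hr : r < D.nroots) (hr' : r' < D.nroots) (t : F) :
    G.xg hr t = G.xg hr' t := by
  subst h
  rfl

theorem Ut_conj_B {m : ℕ} (hm : NN D ≤ m) {b g : GL D.Idx F} (hb : b ∈ D.borelSubgroup F) (hg : g ∈ Ut D F m) :
    b * g * b⁻¹ ∈ Ut D F m := by
  obtain ⟨u, hu, h, hh, rfl⟩ := G.B_form.1 hb
  have h1 : h * g * h⁻¹ ∈ Ut D F m := G.H_conj_rG (fun r hr => hr.2) hh hg
  have h2 := G.Ut_conj_U hm hu h1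
  have e : u * h * g * (u * h)⁻¹ = u * (h * g * h⁻¹) * u⁻¹ := by group
  rwa [e]

theorem cen_le_B (K : Subgroup (GL D.Idx F)) (hKG : K ≤ D.group F)
    (hKB : ∀ b ∈ D.borelSubgroup F, ∀ c ∈ K, b * c * b⁻¹ ∈ K)
    (hno : ∀ (k : Fin D.rank), ∀ c ∈ K, ∀ b ∈ D.borelSubgroup F, (G.nG k : GL D.Idx F) ≠ c * b) :
    K ≤ D.borelSubgroup F := by
  set P := G.bnPair F with hP
  set K' : Subgroup ↥(D.group F) := K.subgroupOf (D.group F) with hK'
  have hconj : ∀ x ∈ P.B, ∀ u ∈ K', x * u * x⁻¹ ∈ K' := by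
    intro x hx u hu
    exact hKB x.1 hx u.1 hu
  have hM := Cfsg.Agent.Lib.BN.eq_parabolic (P := P) (K' ⊔ P.B) le_sup_right
  have hS : P.S ∩ ((K' ⊔ P.B : Subgroup ↥(D.group F)) : Set ↥(D.group F)) = ∅ := by
    rw [Set.eq_empty_iff_forall_notMem]
    rintro ⟨n, hn⟩ ⟨⟨i, hi, h⟩, hm⟩
    obtain rfl := G.S_form hi h
    obtain ⟨c, hc, b, hb, e⟩ := (mem_sup_iff_of_conj hconj).1 hm
    exact hno ⟨i, hi⟩ c.1 hc b.1 hb (congrArg Subtype.val e)
  rw [hS] at hM
  intro c hc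
  have h1 : (⟨c, hKG hc⟩ : ↥(D.group F)) ∈ K' ⊔ P.B := Subgroup.mem_sup_left hc
  rw [hM] at h1
  have h2 : P.parabolic ∅ = P.B := by
    simp [BNPair.parabolic]
  rw [h2] at h1
  exact h1

end Good2

namespace Good3

variable (G : Good3 D)
include G

theorem Ui_eq {i : ℕ} (hi : i < D.rank) : D.unipotentRadical F {j | j ≠ i} = rG D F (Qi D i) := by
  rw [Good3.UJ_eq]
  congr 1
  funext r
  apply propext
  constructor
  · rintro ⟨hP, hns⟩
    refine ⟨(G.toGood2.pos_iff hP.1).1 hP, hP.1, ?_⟩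
    intro h0
    apply hns
    refine ⟨hP.1, ?_⟩
    intro k hk hkJ
    have : k = i := not_not.1 hkJ
    subst this
    exact h0
  · rintro ⟨h1, h2, h3⟩
    refine ⟨(G.toGood2.pos_iff h2).2 h1, fun hs => h3 (hs.2 i hi (by simp))⟩

theorem parabolic_le_group' (J : Set ℕ) : D.parabolicSubgroup F J ≤ D.group F := by
  apply sup_le G.toGood2.B_le_group
  rw [Subgroup.closure_le]
  rintro g ⟨j, hj, hj', hg⟩
  obtain rfl := G.toGood2.S_form hj' hg
  exact G.toGood2.nG_mem_group _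

theorem nG_mem_parabolic {J : Set ℕ} {k : ℕ} (hk : k < D.rank) (hkJ : k ∈ J) :
    (G.toGood2.nG ⟨k, hk⟩ : GL D.Idx F) ∈ D.parabolicSubgroup F J :=
  Subgroup.mem_sup_right (Subgroup.subset_closure ⟨k, hkJ, hk, rfl⟩)

theorem pp_foldr_aux (s : Fin D.nroots) : ∀ (l : List ℕ) (hl : ∀ i ∈ l, i < D.rank),
    ((G.toGood2.pp (l.attach.map fun i => (⟨i.1, hl i.1 i.2⟩ : Fin D.rank)) s : Fin D.nroots) : ℕ) =
      l.foldr G.W s.val := by
  intro l
  induction l with
  | nil => intro hl; rfl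
  | cons a l ih =>
    intro hl
    rw [List.attach_cons, List.map_cons, List.map_map]
    rw [Good2.pp_cons, Equiv.Perm.mul_apply, Good2.Wp_val, List.foldr_cons]
    congr 1
    have := ih (fun i hi => hl i (List.mem_cons_of_mem _ hi))
    rw [← this]
    congr 3

theorem nw_mem_parabolic {J : Set ℕ} (l : List (Fin D.rank)) (hl : ∀ k ∈ l, (k : ℕ) ∈ J) :
    (G.toGood2.nw l : GL D.Idx F) ∈ D.parabolicSubgroup F J := by
  induction l with
  | nil => exact Subgroup.one_mem _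
  | cons a l ih =>
    rw [Good2.nw_cons]
    exact Subgroup.mul_mem _ (G.nG_mem_parabolic a.isLt (hl a (by simp)))
      (ih (fun k hk => hl k (List.mem_cons_of_mem _ hk)))

/-- The key centralizer statement. -/
theorem cen_form [Fintype F] (p : ℕ) [Fact p.Prime] [CharP F p] (T : FitT G) {i : ℕ} (hi : i < D.rank) {g : GL D.Idx F}
    (hgP : g ∈ D.parabolicSubgroup F {j | j ≠ i}) (hc : ∀ x ∈ rG D F (Qi D i), g * x = x * g) :
    g ∈ rG D F (Qi D i) := by
  classical
  have G2 := G.toGood2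
  set UI := rG D F (Qi D i) with hUI
  set Pi := D.parabolicSubgroup F {j | j ≠ i} with hPi
  have hBP : D.borelSubgroup F ≤ Pi := le_sup_left
  have hUB : D.posUnipotent F ≤ D.borelSubgroup F := G.toGood2.U_le_B
  have hUIU : UI ≤ D.posUnipotent F := rG_mono (fun r hr => (G.toGood2.pos_iff hr.2.1).2 hr.1)
  have hnorm : ∀ q ∈ Pi, ∀ x ∈ UI, q⁻¹ * x * q ∈ UI := by
    intro q hq x hx
    have h1 : q⁻¹ ∈ Subgroup.normalizer ((D.unipotentRadical F {j | j ≠ i} : Subgroup _) : Set (GL D.Idx F)) :=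
      G.parabolic_le_normalizer _ (Pi.inv_mem hq)
    rw [G.Ui_eq hi] at h1
    have := (Subgroup.mem_normalizer_iff.1 h1 x).1 hx
    simpa using this
  -- the subgroup C
  set C : Subgroup (GL D.Idx F) := Pi ⊓ Subgroup.centralizer (UI : Set (GL D.Idx F)) with hC
  have hCmem : ∀ {c : GL D.Idx F}, c ∈ C → c ∈ Pi ∧ ∀ x ∈ UI, c * x = x * c := by
    intro c hc
    refine ⟨hc.1, fun x hx => ?_⟩
    exact (Subgroup.mem_centralizer_iff.1 hc.2 x hx).symm
  have hCnorm : ∀ q ∈ Pi, ∀ c ∈ C, q * c * q⁻¹ ∈ C := by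
    intro q hq c hc
    obtain ⟨h1, h2⟩ := hCmem hc
    refine ⟨Pi.mul_mem (Pi.mul_mem hq h1) (Pi.inv_mem hq), Subgroup.mem_centralizer_iff.2 ?_⟩
    intro x hx
    have h3 := h2 _ (hnorm q hq x hx)
    have e : x * (q * c * q⁻¹) = q * (q⁻¹ * x * q * c) * q⁻¹ := by group
    have e2 : q * c * q⁻¹ * x = q * (c * (q⁻¹ * x * q)) * q⁻¹ := by group
    rw [e, e2, h3]
  have hgC : g ∈ C := ⟨hgP, Subgroup.mem_centralizer_iff.2 (fun x hx => (hc x hx).symm)⟩
  -- `C ≤ B`
  have hCB : C ≤ D.borelSubgroup F := by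
    apply G.toGood2.cen_le_B C (inf_le_left.trans (G.parabolic_le_group' _))
      (fun b hb c hc => hCnorm b (hBP hb) c hc)
    intro k c hc b hb e
    obtain ⟨r, hrN, hr, hcr, hlt⟩ := T.down i k hi k.isLt
    obtain ⟨_, h2⟩ := hCmem hc
    have hs : G.W k r < D.nroots := G.W_lt k.isLt hr
    have hWW : G.W k (G.W k r) = r := G.W_W k.isLt hr
    have hSS : ((G.S k (G.W k r) : ℤ) : F) * ((G.S k (G.W k r) : ℤ) : F) = 1 := sign_sq (G.S_cases k.isLt hs)
    set n : GL D.Idx F := G.toGood2.nG k with hn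
    have h3 := h2 (G.xg hr 1) (G.xg_mem hr ⟨hrN, hr, hcr⟩ 1)
    have h4 : n * G.xg hs ((G.S k (G.W k r) : ℤ) : F) * n⁻¹ = G.xg hr 1 := by
      rw [hn, G.toGood2.nG_conj_x k hs, hSS]
      exact G.toGood2.xg_congr' hWW _ _ _
    -- `y = b⁻¹ x b` lies in `Ut r`
    have h5 : b⁻¹ * G.xg hr 1 * b⁻¹⁻¹ ∈ Ut D F r :=
      G.toGood2.Ut_conj_B hrN ((D.borelSubgroup F).inv_mem hb) (G.xg_mem hr ⟨le_rfl, hr⟩ 1)
    have hcn : c = n * b⁻¹ := by rw [e]; group
    have h6 : b⁻¹ * G.xg hr 1 * b⁻¹⁻¹ = G.xg hs ((G.S k (G.W k r) : ℤ) : F) := by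
      have h7 : n * b⁻¹ * G.xg hr 1 = G.xg hr 1 * (n * b⁻¹) := by rw [← hcn]; exact h3
      have h8 : n * (b⁻¹ * G.xg hr 1 * b⁻¹⁻¹) * n⁻¹ = n * G.xg hs ((G.S k (G.W k r) : ℤ) : F) * n⁻¹ := by
        rw [h4]
        calc n * (b⁻¹ * G.xg hr 1 * b⁻¹⁻¹) * n⁻¹ = (n * b⁻¹ * G.xg hr 1) * (n * b⁻¹)⁻¹ := by group
          _ = G.xg hr 1 := by rw [h7]; group
      exact mul_left_cancel (mul_right_cancel h8)
    rw [h6] at h5
    have hS0 : ((G.S k (G.W k r) : ℤ) : F) ≠ 0 := G.toGood2.S_ne_zero k.isLt hs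
    by_cases hN : NN D ≤ G.W k r
    · have h9 : G.xg hs ((G.S k (G.W k r) : ℤ) : F) ∈ Ut D F (G.W k r + 1) :=
        rG_mono (fun q hq => ⟨by omega, hq.2⟩) h5
      exact hS0 (G.toGood2.xg_mem_Ut_eq hs hN h9)
    · push Not at hN
      have h9 : G.xg hs ((G.S k (G.W k r) : ℤ) : F) ∈ D.borelSubgroup F :=
        hUB (G.toGood2.Ut_le_pos r hrN h5)
      exact hS0 (G.toGood2.x_neg_mem_B hs hN h9)
  -- decomposition of `g`
  obtain ⟨u, hu, h, hh, hgu⟩ := G.toGood2.B_form.1 (hCB hgC)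
  set UL := rG D F (Li D i) with hUL
  have hULU : UL ≤ D.posUnipotent F := rG_mono (fun r hr => (G.toGood2.pos_iff hr.2.1).2 hr.1)
  have hULconj : ∀ x ∈ UL, ∀ v ∈ UI, x * v * x⁻¹ ∈ UI := by
    intro x hx v hv
    have := hnorm x⁻¹ (Pi.inv_mem (hBP (hUB (hULU hx)))) v hv
    simpa using this
  have hUsup : D.posUnipotent F ≤ UI ⊔ UL := by
    apply G.rG_le (fun r hr => hr.1)
    intro r hr t hP
    by_cases h0 : cor D r i = 0
    · exact Subgroup.mem_sup_right (G.xg_mem hr ⟨(G.toGood2.pos_iff hr).1 hP, hr, h0⟩ t)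
    · exact Subgroup.mem_sup_left (G.xg_mem hr ⟨(G.toGood2.pos_iff hr).1 hP, hr, h0⟩ t)
  obtain ⟨u₁, hu₁, u₂, hu₂, hu12⟩ := (mem_sup_iff_of_conj hULconj).1 (hUsup hu)
  -- the longest word of the Levi
  obtain ⟨l, hl1, hl2⟩ := T.word i hi
  set lF : List (Fin D.rank) := l.attach.map fun k => (⟨k.1, (hl1 k.1 k.2).1⟩ : Fin D.rank) with hlF
  set n : GL D.Idx F := G.toGood2.nw lF with hn
  have hnP : n ∈ Pi := by
    apply G.nw_mem_parabolic
    intro k hk
    obtain ⟨a, _, rfl⟩ := List.mem_map.1 hk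
    exact (hl1 a.1 a.2).2
  have hpp : ∀ s : Fin D.nroots, ((G.toGood2.pp lF s : Fin D.nroots) : ℕ) = l.foldr G.W s.val := fun s =>
    G.pp_foldr_aux s l (fun k hk => (hl1 k hk).1)
  have hnN0 : n ∈ G.toGood2.N0 F := G.toGood2.nw_mem_N0 _
  have hnMono : IsMono D (G.toGood2.pp lF) ((n : GL D.Idx F) : Matrix D.Idx D.Idx F) := G.toGood2.nw_isMono _
  have h1 : n * u₁ * n⁻¹ ∈ D.posUnipotent F := by
    refine G.toGood2.N0_conj_rG (fun r hr => hr.2.1) hnN0 hnMono ?_ hu₁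
    intro r hr
    rw [G.toGood2.pos_iff (G.toGood2.pp lF r).isLt, hpp]
    exact (hl2 r hr.1 r.isLt).2 hr.2.2
  have h2 : n * u₂ * n⁻¹ ∈ D.negUnipotent F := by
    refine G.toGood2.N0_conj_rG (fun r hr => hr.2.1) hnN0 hnMono ?_ hu₂
    intro r hr
    rw [G.toGood2.neg_iff (G.toGood2.pp lF r).isLt, hpp]
    exact (hl2 r hr.1 r.isLt).1 hr.2.2
  have h3 : n * h * n⁻¹ ∈ D.diagonalSubgroup F := G.toGood2.N0_conj_H hnN0 hh
  have h4 : n * g * n⁻¹ ∈ D.borelSubgroup F := hCB (hCnorm n hnP g hgC)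
  have h5 : n * u₂ * n⁻¹ ∈ D.borelSubgroup F := by
    have e : n * u₂ * n⁻¹ = (n * u₁ * n⁻¹)⁻¹ * (n * g * n⁻¹) * (n * h * n⁻¹)⁻¹ := by
      rw [hgu, hu12]
      group
    rw [e]
    exact Subgroup.mul_mem _ (Subgroup.mul_mem _ (Subgroup.inv_mem _ (hUB h1)) h4)
      (Subgroup.inv_mem _ (G.toGood2.H_le_B h3))
  have h6 : n * u₂ * n⁻¹ ∈ D.borelSubgroup F ⊓ D.negUnipotent F := ⟨h5, h2⟩
  rw [G.toGood2.B_inf_V, Subgroup.mem_bot] at h6
  have hu₂1 : u₂ = 1 := by
    have : n⁻¹ * (n * u₂ * n⁻¹) * n = u₂ := by group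
    rw [← this, h6]
    group
  have hgu₁ : g = u₁ * h := by rw [hgu, hu12, hu₂1, mul_one]
  -- the torus part is trivial
  obtain ⟨χ, hχ, hm, hχc⟩ := G.toGood2.H_conj hh
  obtain ⟨a, ha⟩ : ∃ a : ℕ, u₁ ^ p ^ a = 1 := by
    obtain ⟨a, ha⟩ := G.toGood2.U_pgroup (F := F) p ⟨u₁, hUIU hu₁⟩
    exact ⟨a, by simpa using congrArg Subtype.val ha⟩
  have hcg : Commute u₁ g := ((hc u₁ hu₁).symm)
  have hchiQ : ∀ r, Qi D i r → χ r = 1 := by
    rintro r ⟨hrN, hr, hcr⟩
    have hpow : h ^ p ^ a = g ^ p ^ a := by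
      have e : h = u₁⁻¹ * g := by rw [hgu₁]; group
      rw [e, (hcg.inv_left).mul_pow, inv_pow, ha, inv_one, one_mul]
    have hcom : h ^ p ^ a * G.xg hr 1 = G.xg hr 1 * h ^ p ^ a := by
      rw [hpow]
      have : Commute g (G.xg hr 1) := hc _ (G.xg_mem hr ⟨hrN, hr, hcr⟩ 1)
      exact (this.pow_left _)
    have hact : ∀ m : ℕ, ∀ t : F, h ^ m * G.xg hr t * (h ^ m)⁻¹ = G.xg hr (χ r ^ m * t) := by
      intro m
      induction m with
      | zero => intro t; simp
      | succ m ih =>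
        intro t
        have e : h ^ (m + 1) * G.xg hr t * (h ^ (m + 1))⁻¹ = h ^ m * (h * G.xg hr t * h⁻¹) * (h ^ m)⁻¹ := by
          rw [pow_succ]
          group
        rw [e, hχc r hr t, ih, pow_succ]
        congr 1
        ring
    have h7 := hact (p ^ a) 1
    rw [mul_inv_eq_iff_eq_mul, hcom, mul_one] at h7
    have h8 := mul_right_cancel h7
    have h9 : χ r ^ p ^ a = 1 := by
      have h10 : G.xg hr (1 - χ r ^ p ^ a) = 1 := by
        have := congrArg (fun y => y * G.xg hr (-(χ r ^ p ^ a))) h8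
        simp only [G.xg_mul] at this
        rw [add_neg_cancel, G.xg_zero] at this
        rw [sub_eq_add_neg, this]
      have := G.toGood2.xg_eq_one hr h10
      linear_combination -this
    have h11 : (χ r - 1) ^ p ^ a = 0 := by
      rw [sub_pow_char_pow, h9, one_pow, sub_self]
    have := (pow_eq_zero_iff (pow_ne_zero a (Fact.out : p.Prime).ne_zero)).1 h11
    linear_combination this
  have hsimple : ∀ j, j < D.rank → χ (D.simple j) = 1 := by
    intro j hj
    by_cases hij : i = j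
    · subst hij
      apply hchiQ
      refine ⟨G.toGood2.simple_pos hj, G.simple_lt hj, ?_⟩
      rw [G.toGood2.cor_simple hj hj]
      simp
    · obtain ⟨v, q, hvN, hv, hcv, hq, hqN, hq', hcq⟩ := T.chi i j hi hj hij
      have e := hχ.add (D.simple j) v (G.simple_lt hj) hv (q, 0) hq
      simp only [zero_add, pow_one] at e
      rw [hchiQ q.1 ⟨hqN, hq', hcq⟩, hchiQ v ⟨hvN, hv, hcv⟩, mul_one] at e
      exact e.symm
  have hall := G.toGood2.chi_trivial hχ hsimple
  have hh1 : h = 1 := by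
    apply G.toGood2.H_eq_one hh
    intro s
    rw [hm, dgM, Matrix.diagonal_apply_eq]
    simp [hall s.val s.isLt]
  rw [hgu₁, hh1, mul_one]
  exact hu₁

end Good3

/-- A `p`-group has `F*` equal to `O_p`. -/
theorem isPType_of_pgroup_aux {X : Type*} [Group X] [Finite X] {p : ℕ} [Fact p.Prime] (hX : IsPGroup p X) :
    Cfsg.Agent.Lib.Components.IsPType p X := by
  refine ⟨?_, ?_⟩
  · rw [layer, sSup_eq_bot]
    intro K hK
    exfalso
    exact Cfsg.Agent.Lib.Components.qs_not_solvable hK.2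
      (Cfsg.Agent.Lib.Components.isSolvable_of_isPGroup (hX.to_subgroup K))
  · have h := Cfsg.Agent.Lib.Components.inf_eq_bot_of_isPGroup_of_coprime (A := ⊤) (B := pPrimeCore p X) (p := p)
      (hX.to_subgroup ⊤) (Cfsg.Agent.Lib.Components.coprime_card_pPrimeCore p)
    simpa using h

/-- `F*(P_J)` is a `p`-group. -/
theorem fit_main (G : Good3 D) (T : FitT G) [Fintype F] (p : ℕ) [Fact p.Prime] [CharP F p] (J : Set ℕ)
    (hJ : ∃ i, i < D.rank ∧ i ∉ J) :
    IsPGroup p ↥(generalizedFittingSubgroup ↥(D.parabolicSubgroup F J)) := by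
  classical
  obtain ⟨i, hi, hiJ⟩ := hJ
  set P := D.parabolicSubgroup F J with hP
  have hUJP : D.unipotentRadical F J ≤ P := by
    rw [hP, ← G.UJ_sup_LJ J]
    exact le_sup_left
  set T' : Subgroup ↥P := (D.unipotentRadical F J).subgroupOf P with hT'
  have hTn : T'.Normal := by
    rw [hT', Subgroup.normal_subgroupOf_iff_le_normalizer hUJP]
    exact G.parabolic_le_normalizer J
  have hUJU : D.unipotentRadical F J ≤ D.posUnipotent F := by
    rw [Good3.UJ_eq]
    exact rG_mono (fun r hr => hr.1)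
  have hTp : IsPGroup p T' :=
    Cfsg.Agent.Lib.Components.isPGroup_subgroupOf ((G.toGood2.U_pgroup (F := F) p).to_le hUJU)
  have hcen : Subgroup.centralizer (T' : Set ↥P) ≤ T' := by
    intro c hc
    have hPle : P ≤ D.parabolicSubgroup F {j | j ≠ i} := by
      apply sup_le le_sup_left
      apply le_sup_of_le_right
      apply Subgroup.closure_mono
      rintro g ⟨j, hj, hj', hg⟩
      refine ⟨j, ?_, hj', hg⟩
      rintro rfl
      exact hiJ hj
    have hUi : rG D F (Qi D i) ≤ D.unipotentRadical F J := by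
      rw [Good3.UJ_eq]
      apply rG_mono
      rintro r ⟨h1, h2, h3⟩
      exact ⟨(G.toGood2.pos_iff h2).2 h1, fun hs => h3 (hs.2 i hi hiJ)⟩
    have h1 := G.cen_form p T hi (hPle c.2) (fun x hx => by
      have h2 : (⟨x, hUJP (hUi hx)⟩ : ↥P) ∈ T' := hUi hx
      have h3 := Subgroup.mem_centralizer_iff.1 hc _ h2
      exact (congrArg Subtype.val h3).symm)
    exact hUi h1
  have h := Cfsg.Agent.Lib.Components.isPType_of_centralizer_le hTn hTp hcen (isPType_of_pgroup_aux hTp)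
  rw [Cfsg.Agent.Lib.Components.isPType_iff.1 h]
  exact Cfsg.Agent.Lib.Components.pCore_isPGroup

/-! Boolean checks -/

/-- check of `FitT.down` -/
def chkFitDown (T : Tbl) (W : ℕ → ℕ → ℕ) : Bool :=
  allLt T.l fun i => allLt T.l fun k => (List.range T.n).any fun r =>
    Nat.ble (T.n / 2) r && !(decide (T.cor r i = 0)) && Nat.blt (W k r) r

/-- check of `FitT.chi` -/
def chkFitChi (T : Tbl) (simple : ℕ → ℕ) : Bool :=
  allLt T.l fun i => allLt T.l fun j => Nat.beq i j || (List.range T.n).any fun v =>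
    Nat.ble (T.n / 2) v && !(decide (T.cor v i = 0)) &&
      match T.ce (simple j) v with
      | [] => false
      | q :: _ => Nat.ble (T.n / 2) q.1 && Nat.blt q.1 T.n && !(decide (T.cor q.1 i = 0))

/-- check of one word -/
def chkFitWord (T : Tbl) (W : ℕ → ℕ → ℕ) (l : List ℕ) (i : ℕ) : Bool :=
  l.all (fun k => Nat.blt k T.l && !(Nat.beq k i)) && allLt T.n fun r => !(Nat.ble (T.n / 2) r) ||
    (if decide (T.cor r i = 0) then Nat.blt (l.foldr W r) (T.n / 2) else Nat.ble (T.n / 2) (l.foldr W r))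

/-- check of `FitT.word` -/
def chkFitWords (T : Tbl) (W : ℕ → ℕ → ℕ) (ws : List (List ℕ)) : Bool :=
  allLt T.l fun i => chkFitWord T W (ws.getD i []) i

theorem fitT_of_chk (G : Good3 D) {ws : List (List ℕ)} (h1 : chkFitDown (tblOf D) G.W = true)
    (h2 : chkFitChi (tblOf D) D.simple = true) (h3 : chkFitWords (tblOf D) G.W ws = true) : FitT G := by
  refine ⟨?_, ?_, ?_⟩
  · intro i k hi hk
    have h4 := (allLt_iff _ _).1 ((allLt_iff _ _).1 h1 i hi) k hk
    simp only [List.any_eq_true, List.mem_range, Bool.and_eq_true] at h4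
    obtain ⟨r, hr, ⟨h5, h6⟩, h7⟩ := h4
    refine ⟨r, Nat.le_of_ble_eq_true h5, hr, ?_, Nat.le_of_ble_eq_true h7⟩
    intro h0
    have h8 : decide (cor D r i = 0) = true := decide_eq_true h0
    have h9 : (!(decide (cor D r i = 0))) = true := h6
    rw [h8] at h9
    simp at h9
  · intro i j hi hj hij
    have h4 := (allLt_iff _ _).1 ((allLt_iff _ _).1 h2 i hi) j hj
    have h5 : Nat.beq i j = false := by
      rw [Bool.eq_false_iff]
      intro h
      exact hij (Nat.eq_of_beq_eq_true h)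
    simp only [h5, Bool.false_or, List.any_eq_true, List.mem_range, Bool.and_eq_true] at h4
    obtain ⟨v, hv, ⟨h6, h7⟩, h8⟩ := h4
    have h9 : (tblOf D).ce (D.simple j) v = D.chainEntry (D.simple j) v := rfl
    rw [h9] at h8
    revert h8
    cases hce : D.chainEntry (D.simple j) v with
    | nil => simp
    | cons q L =>
      intro h8
      simp only [Bool.and_eq_true] at h8
      obtain ⟨⟨h10, h11⟩, h12⟩ := h8
      refine ⟨v, q, Nat.le_of_ble_eq_true h6, hv, ?_, ?_, Nat.le_of_ble_eq_true h10, Nat.le_of_ble_eq_true h11, ?_⟩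
      · intro h0
        have h8 : decide (cor D v i = 0) = true := decide_eq_true h0
        have h9 : (!(decide (cor D v i = 0))) = true := h7
        rw [h8] at h9
        simp at h9
      · rw [hce]
        simp [List.zipIdx_cons]
      · intro h0
        have h8 : decide (cor D q.1 i = 0) = true := decide_eq_true h0
        have h9 : (!(decide (cor D q.1 i = 0))) = true := h12
        rw [h8] at h9
        simp at h9
  · intro i hi
    have h4 := (allLt_iff _ _).1 h3 i hi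
    simp only [chkFitWord, Bool.and_eq_true, List.all_eq_true] at h4
    obtain ⟨h5, h6⟩ := h4
    refine ⟨ws.getD i [], ?_, ?_⟩
    · intro k hk
      have h7 := h5 k hk
      refine ⟨Nat.le_of_ble_eq_true h7.1, ?_⟩
      rintro rfl
      have h9 : (!(Nat.beq k k)) = true := h7.2
      simp at h9
    · intro r hr hr'
      have h7 := (allLt_iff _ _).1 h6 r hr'
      have h8 : Nat.ble ((tblOf D).n / 2) r = true := Nat.ble_eq_true_of_le hr
      rw [h8] at h7
      simp only [Bool.not_true, Bool.false_or] at h7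
      constructor
      · intro h0
        have h9 : decide ((tblOf D).cor r i = 0) = true := decide_eq_true h0
        rw [if_pos h9] at h7
        exact Nat.le_of_ble_eq_true h7
      · intro h0
        have h9 : ¬ (decide ((tblOf D).cor r i = 0) = true) := by
          intro h10
          exact h0 (of_decide_eq_true h10)
        rw [if_neg h9] at h7
        exact Nat.le_of_ble_eq_true h7

end Cfsg.Agent.Lib.Chev
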