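import Cfsg.Agent.Lib.Chev.Sub.Fold
import Cfsg.Agent.Lib.Chev.Tw.D4e
import Cfsg.Agent.Lib.Chev.TorusCard
import Cfsg.Agent.Lib.Chev.WeylMain
import Cfsg.Agent.Lib.Chev.Tab.G2e

/-!
The fixed points of the triality automorphism of `D₄(F)`: the group `G₂(F)`.
-/

set_option autoImplicit false
set_option maxRecDepth 1000000
set_option linter.unusedSimpArgs false
set_option linter.unusedVariables false
set_option linter.unusedSectionVars false
set_option linter.style.haveILetI false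

namespace Cfsg.Agent.Lib.Chev.TwD4

open Cfsg Cfsg.Lie Matrix Cfsg.Agent.Lib.BN Cfsg.Agent.Lib.Chev.Tw TabD4

def foldL : List (List Tm) :=
  [[(0, 1, 0, 0), (2, 1, 0, 0), (3, 1, 0, 0)],
   [(1, 1, 0, 0)],
   [(4, -1, 0, 0)],
   [(5, -1, 0, 0)],
   [(6, -1, 0, 0), (7, -1, 0, 0), (10, 1, 0, 0)],
   [(8, 1, 0, 0), (11, -1, 0, 0), (12, -1, 0, 0)],
   [(9, 1, 0, 0), (14, 1, 0, 0), (15, 1, 0, 0)],
   [(13, 1, 0, 0)],
   [(18, 1, 0, 0)],
   [(16, 1, 0, 0), (17, 1, 0, 0), (22, 1, 0, 0)],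
   [(19, -1, 0, 0), (20, -1, 0, 0), (23, 1, 0, 0)],
   [(21, 1, 0, 0), (24, -1, 0, 0), (25, -1, 0, 0)],
   [(26, -1, 0, 0)],
   [(27, -1, 0, 0)]]

abbrev foldI (k : ℕ) : List Tm := foldL.getD k []

theorem foldI_ge (k : ℕ) (hk : chevG2.rank + chevG2.nroots ≤ k) : foldI k = [] :=
  List.getD_eq_default _ _ (le_trans (by decide +kernel) hk)

theorem foldI_zero : ∀ k, ∀ τ ∈ foldI k, τ.2.2.1 = 0 ∧ τ.2.2.2 = 0 :=
  foldZ_spec (by decide +kernel)

theorem foldJ_chk : foldJChk (tblOf chevD4) (tblOf chevG2) foldI = true := by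
  rw [← TabD4.tbl_eq, ← TabG2.tbl_eq]
  decide +kernel

theorem chk_a : foldChk (tblOf chevD4) (tblOf chevG2) foldI
    [(chevD4.simple 0, moT), (chevD4.simple 2, moT), (chevD4.simple 3, moT)] (chevG2.simple 0) moT = true := by
  rw [← TabD4.tbl_eq, ← TabG2.tbl_eq]
  decide +kernel

theorem chk_b : foldChk (tblOf chevD4) (tblOf chevG2) foldI [(chevD4.simple 1, moT)] (chevG2.simple 1) moT = true := by
  rw [← TabD4.tbl_eq, ← TabG2.tbl_eq]
  decide +kernel

theorem chk_ma : foldChk (tblOf chevD4) (tblOf chevG2) foldI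
    [(chevD4.neg (chevD4.simple 0), moT), (chevD4.neg (chevD4.simple 2), moT), (chevD4.neg (chevD4.simple 3), moT)]
    (chevG2.neg (chevG2.simple 0)) moT = true := by
  rw [← TabD4.tbl_eq, ← TabG2.tbl_eq]
  decide +kernel

theorem chk_mb : foldChk (tblOf chevD4) (tblOf chevG2) foldI [(chevD4.neg (chevD4.simple 1), moT)]
    (chevG2.neg (chevG2.simple 1)) moT = true := by
  rw [← TabD4.tbl_eq, ← TabG2.tbl_eq]
  decide +kernel

section

variable {K : Type*} [Field K]

/-- The trivial automorphism of the field. -/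
abbrev Rf (K : Type*) [Field K] : K ≃+* K := RingEquiv.refl K

theorem Rf3 : ∀ t : K, Rf K (Rf K (Rf K t)) = t := fun _ => rfl

/-- The intertwining matrix. -/
noncomputable abbrev foldIM (K : Type*) [Field K] : Matrix chevD4.Idx chevG2.Idx K := foldM chevD4 chevG2 K foldI

abbrev g2 : Good3 chevG2 := TabG2.good3

theorem h20 : 0 < chevG2.rank := by decide +kernel
theorem h21 : 1 < chevG2.rank := by decide +kernel

theorem rel_a (t : K) : ((xs 0 h0 t * xs 2 h2 t * xs 3 h3 t : GL chevD4.Idx K) : Matrix chevD4.Idx chevD4.Idx K) * foldIM K =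
    foldIM K * chevG2.x K (chevG2.simple 0) t :=
  fold_x3 good3.toGood0 g2.toGood0 foldI foldI_ge foldI_zero (good3.simple_lt h0) (good3.simple_lt h2) (good3.simple_lt h3)
    (g2.simple_lt h20) chk_a t

theorem rel_b (t : K) : ((xs 1 h1 t : GL chevD4.Idx K) : Matrix chevD4.Idx chevD4.Idx K) * foldIM K =
    foldIM K * chevG2.x K (chevG2.simple 1) t :=
  fold_x1 good3.toGood0 g2.toGood0 foldI foldI_ge foldI_zero (good3.simple_lt h1)
    (g2.simple_lt h21) chk_b t

theorem rel_ma (t : K) : ((good3.xg (good3.neg_lt (good3.simple_lt h0)) t * good3.xg (good3.neg_lt (good3.simple_lt h2)) t *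
      good3.xg (good3.neg_lt (good3.simple_lt h3)) t : GL chevD4.Idx K) : Matrix chevD4.Idx chevD4.Idx K) * foldIM K =
    foldIM K * chevG2.x K (chevG2.neg (chevG2.simple 0)) t :=
  fold_x3 good3.toGood0 g2.toGood0 foldI foldI_ge foldI_zero (good3.neg_lt (good3.simple_lt h0)) (good3.neg_lt (good3.simple_lt h2))
    (good3.neg_lt (good3.simple_lt h3)) (g2.neg_lt (g2.simple_lt h20)) chk_ma t

theorem rel_mb (t : K) : ((good3.xg (good3.neg_lt (good3.simple_lt h1)) t : GL chevD4.Idx K) : Matrix chevD4.Idx chevD4.Idx K) * foldIM K =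
    foldIM K * chevG2.x K (chevG2.neg (chevG2.simple 1)) t :=
  fold_x1 good3.toGood0 g2.toGood0 foldI foldI_ge foldI_zero (good3.neg_lt (good3.simple_lt h1))
    (g2.neg_lt (g2.simple_lt h21)) chk_mb t

theorem x2_mem {r : ℕ} (hr : r < chevG2.nroots) (t : K) : g2.xg hr t ∈ chevG2.group K :=
  g2.toGood2.xg_mem_grp hr t

theorem iot_xs' (i : ℕ) (hi : i < chevD4.rank) (t : K) :
    TwAut.iot good5.inv K (xs i hi t) = good3.xg (good3.neg_lt (good3.simple_lt hi)) (-t) :=
  TwAut.iot_x invD good3 _ t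

theorem gens_rel : ∀ g ∈ (⋃ i, (((TT (Rf K)).XJ (JJ i) : Set (GL chevD4.Idx K)) ∪ ((TT (Rf K)).YJ (JJ i) : Set (GL chevD4.Idx K)))),
    ∃ g' ∈ chevG2.group K, (g : Matrix chevD4.Idx chevD4.Idx K) * foldIM K = foldIM K * (g' : Matrix chevG2.Idx chevG2.Idx K) := by
  intro g hg
  obtain ⟨i, hg⟩ := Set.mem_iUnion.mp hg
  fin_cases i
  · rcases hg with hg | hg
    · obtain ⟨t, ht, rfl⟩ := (X0_iff (Rf K)).mp hg
      exact ⟨g2.xg (g2.simple_lt h21) t, x2_mem _ t, rel_b t⟩
    · obtain ⟨c, hc, rfl⟩ := ((TT (Rf K)).mem_Y_iff invD).mp hg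
      obtain ⟨t, ht, rfl⟩ := (X0_iff (Rf K)).mp hc
      rw [iot_xs']
      exact ⟨g2.xg (g2.neg_lt (g2.simple_lt h21)) (-t), x2_mem _ _, rel_mb (-t)⟩
  · rcases hg with hg | hg
    · obtain ⟨t, ht, rfl⟩ := (X1_iff (Rf K)).mp hg
      exact ⟨g2.xg (g2.simple_lt h20) t, x2_mem _ t, rel_a t⟩
    · obtain ⟨c, hc, rfl⟩ := ((TT (Rf K)).mem_Y_iff invD).mp hg
      obtain ⟨t, ht, rfl⟩ := (X1_iff (Rf K)).mp hc
      rw [TwAut.iot_mul, TwAut.iot_mul, iot_xs', iot_xs', iot_xs']
      exact ⟨g2.xg (g2.neg_lt (g2.simple_lt h20)) (-t), x2_mem _ _, rel_ma (-t)⟩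

theorem gens_surj1 (i : ℕ) (hi : i < chevG2.rank) (t : K) :
    ∃ g ∈ (TT (Rf K)).AA JJ, (g : Matrix chevD4.Idx chevD4.Idx K) * foldIM K = foldIM K * chevG2.x K (chevG2.simple i) t := by
  have hi2 : i < 2 := hi
  interval_cases i
  · exact ⟨_, (TT (Rf K)).X_le_AA JJ 1 ((X1_iff (Rf K)).mpr ⟨t, rfl, rfl⟩), rel_a t⟩
  · exact ⟨_, (TT (Rf K)).X_le_AA JJ 0 ((X0_iff (Rf K)).mpr ⟨t, rfl, rfl⟩), rel_b t⟩

theorem gens_surj2 (i : ℕ) (hi : i < chevG2.rank) (t : K) :
    ∃ g ∈ (TT (Rf K)).AA JJ, (g : Matrix chevD4.Idx chevD4.Idx K) * foldIM K =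
      foldIM K * chevG2.x K (chevG2.neg (chevG2.simple i)) t := by
  have hi2 : i < 2 := hi
  interval_cases i
  · refine ⟨_, (TT (Rf K)).Y_le_AA JJ 1 ((TT (Rf K)).iot_X invD ((X1_iff (Rf K)).mpr ⟨-t, rfl, rfl⟩)), ?_⟩
    rw [TwAut.iot_mul, TwAut.iot_mul, iot_xs', iot_xs', iot_xs']
    simp only [RingEquiv.refl_apply, neg_neg]
    exact rel_ma t
  · refine ⟨_, (TT (Rf K)).Y_le_AA JJ 0 ((TT (Rf K)).iot_X invD ((X0_iff (Rf K)).mpr ⟨-t, rfl, rfl⟩)), ?_⟩
    rw [iot_xs', neg_neg]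
    exact rel_mb t

/-- The weights of the letters, for the trivial automorphism of the field. -/
def wtR : Fin 2 → ℕ := fun _ => 1

theorem poly_chkR : pMul (pWt wtR (words.map (TwSys.LF 2))) (pMul (pBin 1 (-1)) (pBin 1 (-1))) =
    pMul (pBin 2 (-1)) (pBin 6 (-1)) := by
  decide +kernel

variable [Fintype K]

theorem card_XR0 : Nat.card ↥((TT (Rf K)).XJ [1]) = Fintype.card K := by
  have e : K ≃ ↥((TT (Rf K)).XJ [1]) := by
    refine Equiv.ofBijective (fun t => ⟨xs 1 h1 t, (X0_iff (Rf K)).mpr ⟨t, rfl, rfl⟩⟩) ⟨?_, ?_⟩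
    · intro t t' h
      exact good3.xg_inj (good3.simple_lt h1) (congrArg Subtype.val h)
    · rintro ⟨c, hc⟩
      obtain ⟨t, ht, rfl⟩ := (X0_iff (Rf K)).mp hc
      exact ⟨t, rfl⟩
  rw [← Nat.card_congr e, Nat.card_eq_fintype_card]

theorem card_XR1 : Nat.card ↥((TT (Rf K)).XJ [0, 2, 3]) = Fintype.card K := by
  have e : K ≃ ↥((TT (Rf K)).XJ [0, 2, 3]) := by
    refine Equiv.ofBijective (fun t => ⟨xs 0 h0 t * xs 2 h2 t * xs 3 h3 t, (X1_iff (Rf K)).mpr ⟨t, rfl, rfl⟩⟩) ⟨?_, ?_⟩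
    · intro t t' h
      have h1 : xs 0 h0 t * xs 2 h2 t * xs 3 h3 t = xs 0 h0 t' * xs 2 h2 t' * xs 3 h3 t' :=
        congrArg Subtype.val h
      rw [mul_assoc, mul_assoc] at h1
      have qq := fun (b : ℕ) (hb : b < chevD4.rank) (t : K) (hh : b ≠ 0) =>
        good3.xg_mem (F := K) (good3.simple_lt hb) (((TT (Rf K))).simple_Qp lin hb (J := [0]) (by simpa using hh)) t
      exact (TT (Rf K)).coord_inj lin h0 (J := [0]) (by simp)
        (Subgroup.mul_mem _ (qq 2 h2 _ (by norm_num)) (qq 3 h3 _ (by norm_num)))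
        (Subgroup.mul_mem _ (qq 2 h2 _ (by norm_num)) (qq 3 h3 _ (by norm_num))) h1
    · rintro ⟨c, hc⟩
      obtain ⟨t, ht, rfl⟩ := (X1_iff (Rf K)).mp hc
      exact ⟨t, rfl⟩
  rw [← Nat.card_congr e, Nat.card_eq_fintype_card]

theorem fixU_refl : fixU (Rf K) = ⊤ := by
  ext u
  simp [mem_fixU]

theorem card_AAR : (Nat.card ↥((TT (Rf K)).AA JJ) : ℤ) =
    (Fintype.card K : ℤ) ^ 6 * (((Fintype.card K : ℤ) ^ 2 + -1) * ((Fintype.card K : ℤ) ^ 6 + -1)) := by
  have S := sys (Rf K) Rf3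
  set q := Fintype.card K with hq
  have hN : ∀ i : Fin 2, Nat.card ↥((TT (Rf K)).XJ (JJ i)) = q ^ wtR i := by
    intro i
    fin_cases i
    · simpa [wtR, JJ] using card_XR0 (K := K)
    · simpa [wtR, JJ] using card_XR1 (K := K)
  have hq1 : 1 ≤ q := Fintype.card_pos
  have h1 := congrArg (pEval · (q : ℤ)) poly_chkR
  simp only [pEval_mul, pEval_pBin] at h1
  have hU : Nat.card ↥(chevD4.posUnipotent K ⊓ (TT (Rf K)).AA JJ) = q ^ 6 := by
    rw [S.card_U1 (long (Rf K) Rf3)]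
    have e0 : Nat.card ↥((TT (Rf K)).XJ (JJ 0)) = q := card_XR0
    have e1 : Nat.card ↥((TT (Rf K)).XJ (JJ 1)) = q := card_XR1
    simp only [List.map_cons, List.map_nil, List.prod_cons, List.prod_nil, e0, e1]
    ring
  have hH : Nat.card ↥(chevD4.diagonalSubgroup K ⊓ (TT (Rf K)).AA JJ) = (q - 1) * (q - 1) := by
    rw [card_H1 (Rf K) Rf3, fixU_refl, Subgroup.card_top, Nat.card_units, Nat.card_eq_fintype_card]
  rw [S.card_AA (wtab (Rf K) Rf3), S.card_B1 (long (Rf K) Rf3), hU, hH]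
  rw [Nat.cast_mul, pEval_pWt wtR _ q _ hN]
  push_cast [Nat.cast_sub hq1]
  simp only [pow_one] at h1
  linear_combination ((q : ℤ) ^ 6) * h1

theorem card_G2R : (Nat.card ↥(chevG2.group K) : ℤ) =
    (Fintype.card K : ℤ) ^ 6 * (((Fintype.card K : ℤ) ^ 2 + -1) * ((Fintype.card K : ℤ) ^ 6 + -1)) := by
  have h := TabG2.good2.H_card_of_smith (F := K) rfl (matOf 2 [[0, -1], [1, 2]])
      (matOf 2 [[1, 2], [0, 1]]) (matOf 2 [[2, 1], [-1, 0]]) (matOf 2 [[1, -2], [0, 1]])
      (fun i => ([1, 1] : List ℕ).getD i.val 1)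
      (by decide +kernel) (by decide +kernel) (by decide +kernel) (by decide +kernel) (by decide +kernel)
  have h2 : (∏ i : Fin chevG2.rank, Nat.gcd (([1, 1] : List ℕ).getD i.val 1) (Fintype.card K - 1)) = 1 := by
    show (∏ i : Fin 2, Nat.gcd (([1, 1] : List ℕ).getD i.val 1) (Fintype.card K - 1)) = 1
    simp [Fin.prod_univ_succ, sq]
  rw [h2] at h
  have h3 := TabG2.good4.order_formula rfl [2, 6] (by decide +kernel) h
  have hN : Good2.NN chevG2 = 6 := by decide +kernel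
  rw [hN] at h3
  simp only [List.map_cons, List.map_nil, List.prod_cons, List.prod_nil, mul_one] at h3
  push_cast at h3
  rw [one_mul] at h3
  rw [h3]
  ring

theorem fold_main : Nonempty (↥((TT (Rf K)).AA JJ) ≃* ↥(chevG2.group K)) := by
  refine fold_iso _ _ rfl (foldIM K) (foldJ chevD4 chevG2 K foldI) (foldJ_mul chevD4 chevG2 foldI foldJ_chk) gens_rel
    g2.toGood2 gens_surj1 gens_surj2 ?_
  apply Nat.cast_injective (R := ℤ)
  rw [card_AAR, card_G2R]

omit [Fintype K] in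
theorem Fx_eqR : (TT (Rf K)).Fx = (TT (Rf K)).AA JJ := by
  refine (sys (Rf K) Rf3).Fx_eq_AA (long (Rf K) Rf3) ?_
  intro k hk hs
  rw [← good3.toGood2.torusHom_range] at hk
  obtain ⟨c, rfl⟩ := hk
  obtain ⟨x, hx⟩ := fix_form (Rf K) Rf3 hs
  have : good3.toGood2.torusHom c ∈ chevD4.diagonalSubgroup K ⊓ (TT (Rf K)).AA JJ := by
    rw [H1_eq (Rf K) Rf3, hx]
    exact ⟨x, rfl⟩
  exact this.2

end

set_option maxRecDepth 100000 in
set_option synthInstance.maxSize 1000 in
set_option synthInstance.maxHeartbeats 200000 in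
set_option backward.isDefEq.respectTransparency false in
theorem sym_cases : ∀ π : Equiv.Perm (Fin chevD4.rank), chevD4.IsDiagramSymmetry π →
    (∀ i, π (π i) = i) ∨ (∀ i : Fin chevD4.rank, (π i).val = gRi.getD i 0) ∨
      (∀ i : Fin chevD4.rank, (π i).val = gRi'.getD i 0) := by
  unfold Cfsg.Lie.ChevalleyDatum.IsDiagramSymmetry
  decide +kernel

theorem long_false : ∀ j : Fin chevD4.rank, chevD4.isLong (chevD4.simple j) = false := by decide +kernel

theorem ri_ri' : ∀ i : Fin chevD4.rank, gRi'.getD (gRi.getD i 0) 0 = i.val := by decide +kernel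

section

variable {K : Type*} [Field K]

theorem eps_simple (i : Fin chevD4.rank) : (TT (Rf K)).ε (chevD4.simple i) = 1 := by
  obtain ⟨i, hi⟩ := i
  have hi2 : i < 4 := hi
  interval_cases i
  · exact eps_s0
  · exact eps_s1
  · exact eps_s2
  · exact eps_s3

theorem triality_main [Fintype K] (τ : MulAut ↥(chevD4.group K)) (hτ : chevD4.IsGraphAut τ) (hτ3 : orderOf τ = 3) :
    Nonempty (↥(MonoidHom.eqLocus τ.toMonoidHom (MonoidHom.id ↥(chevD4.group K))) ≃* ↥(chevG2.group K)) := by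
  obtain ⟨π, hπ, hgen⟩ := hτ
  have hexp : ∀ i j : Fin chevD4.rank, chevD4.graphExp (ringChar K) i j = 1 := by
    intro i j
    simp [ChevalleyDatum.graphExp, long_false]
  have hg : ∀ (i : Fin chevD4.rank) (t : K),
      ((τ (good3.toGood2.xG (good3.simple_lt i.isLt) t) : ↥(chevD4.group K)) : GL chevD4.Idx K) =
        good3.xg (good3.simple_lt (π i).isLt) t ∧
      ((τ (good3.toGood2.xG (good3.neg_lt (good3.simple_lt i.isLt)) t) : ↥(chevD4.group K)) : GL chevD4.Idx K) =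
        good3.xg (good3.neg_lt (good3.simple_lt (π i).isLt)) t := by
    intro i t
    constructor
    · apply Units.ext
      have := (hgen (good3.toGood2.xG (good3.simple_lt i.isLt) t) i t).1 rfl
      rwa [hexp, pow_one] at this
    · apply Units.ext
      have := (hgen (good3.toGood2.xG (good3.neg_lt (good3.simple_lt i.isLt)) t) i t).2 rfl
      rwa [hexp, pow_one] at this
  have key : ∃ T : TwAut good3 K, T = TT (Rf K) ∧ ∀ g : ↥(chevD4.group K), τ g = g ↔ T.s (g : GL chevD4.Idx K) = g := by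
    refine ⟨_, rfl, ?_⟩
    have hfield : ∀ (r : ℕ) (t : K), (TT (Rf K)).φ r t = t := fun _ _ => rfl
    have hs : ∀ g : ↥(chevD4.group K), (TT (Rf K)).s (g : GL chevD4.Idx K) = (TT (Rf K)).σ g := by
      intro g
      rw [(TT (Rf K)).s_of g.2]
    rcases sym_cases π hπ with h | h | h
    · exfalso
      have hxG : ∀ {r r' : ℕ} (hr : r < chevD4.nroots) (hr' : r' < chevD4.nroots) (e : r = r') (t : K),
          good3.toGood2.xG hr t = good3.toGood2.xG hr' t := by
        intro r r' hr hr' e t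
        subst e
        rfl
      have h1 : ∀ (i : Fin chevD4.rank) (t : K), τ (good3.toGood2.xG (good3.simple_lt i.isLt) t) =
          good3.toGood2.xG (good3.simple_lt (π i).isLt) t := fun i t => Subtype.ext (hg i t).1
      have h2 : ∀ (i : Fin chevD4.rank) (t : K), τ (good3.toGood2.xG (good3.neg_lt (good3.simple_lt i.isLt)) t) =
          good3.toGood2.xG (good3.neg_lt (good3.simple_lt (π i).isLt)) t := fun i t => Subtype.ext (hg i t).2
      have htop : MonoidHom.eqLocus (τ * τ).toMonoidHom (MonoidHom.id ↥(chevD4.group K)) = ⊤ := by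
        apply good3.toGood2.eq_top_of_pm
        · intro i hi t
          show τ (τ (good3.toGood2.xG (good3.simple_lt hi) t)) = good3.toGood2.xG (good3.simple_lt hi) t
          have e1 := h1 ⟨i, hi⟩ t
          rw [e1, h1 (π ⟨i, hi⟩) t]
          exact hxG _ _ (by rw [h]) t
        · intro i hi t
          show τ (τ (good3.toGood2.xG (good3.neg_lt (good3.simple_lt hi)) t)) = good3.toGood2.xG (good3.neg_lt (good3.simple_lt hi)) t
          have e1 := h2 ⟨i, hi⟩ t
          rw [e1, h2 (π ⟨i, hi⟩) t]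
          exact hxG _ _ (by rw [h]) t
      have h3 : τ ^ 2 = 1 := by
        rw [pow_two]
        apply MulEquiv.ext
        intro g
        have : g ∈ MonoidHom.eqLocus (τ * τ).toMonoidHom (MonoidHom.id ↥(chevD4.group K)) := by
          rw [htop]
          exact Subgroup.mem_top g
        exact this
      have h4 := orderOf_dvd_of_pow_eq_one h3
      rw [hτ3] at h4
      omega
    · have he := graph_eq_sigma (TT (Rf K)) τ π (fun i => Fin.ext (h i).symm) eps_simple hfield hg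
      intro g
      rw [hs, ← he, Subtype.ext_iff]
    · have hg' : ∀ (i : Fin chevD4.rank) (t : K),
          (((τ⁻¹ : MulAut ↥(chevD4.group K)) (good3.toGood2.xG (good3.simple_lt i.isLt) t) : ↥(chevD4.group K)) : GL chevD4.Idx K) =
            good3.xg (good3.simple_lt ((TT (Rf K)).ρi i).isLt) t ∧
          (((τ⁻¹ : MulAut ↥(chevD4.group K)) (good3.toGood2.xG (good3.neg_lt (good3.simple_lt i.isLt)) t) : ↥(chevD4.group K)) : GL chevD4.Idx K) =
            good3.xg (good3.neg_lt (good3.simple_lt ((TT (Rf K)).ρi i).isLt)) t := by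
        intro i t
        have hp : π ((TT (Rf K)).ρi i) = i := by
          apply Fin.ext
          rw [h]
          exact ri_ri' i
        have e1 := hg ((TT (Rf K)).ρi i) t
        rw [hp] at e1
        constructor
        · have e2 : τ (good3.toGood2.xG (good3.simple_lt ((TT (Rf K)).ρi i).isLt) t) = good3.toGood2.xG (good3.simple_lt i.isLt) t :=
            Subtype.ext e1.1
          rw [← e2, MulAut.inv_apply_self]
          rfl
        · have e2 : τ (good3.toGood2.xG (good3.neg_lt (good3.simple_lt ((TT (Rf K)).ρi i).isLt)) t) =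
              good3.toGood2.xG (good3.neg_lt (good3.simple_lt i.isLt)) t :=
            Subtype.ext e1.2
          rw [← e2, MulAut.inv_apply_self]
          rfl
      have he := graph_eq_sigma (TT (Rf K)) τ⁻¹ (TT (Rf K)).ρi (fun _ => rfl) eps_simple hfield hg'
      intro g
      rw [hs, ← he, Subtype.ext_iff]
      constructor
      · intro h5
        have h6 : τ g = g := Subtype.ext h5
        rw [show (τ⁻¹ : MulAut ↥(chevD4.group K)) g = (τ⁻¹ : MulAut ↥(chevD4.group K)) (τ g) by rw [h6], MulAut.inv_apply_self]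
      · intro h5
        have h6 : (τ⁻¹ : MulAut ↥(chevD4.group K)) g = g := Subtype.ext h5
        rw [show τ g = τ ((τ⁻¹ : MulAut ↥(chevD4.group K)) g) by rw [h6], MulAut.apply_inv_self]
  obtain ⟨T, rfl, hT⟩ := key
  obtain ⟨e₁⟩ := fix_equiv (TT (Rf K)) τ hT
  obtain ⟨e₂⟩ := fold_main (K := K)
  exact ⟨e₁.trans ((MulEquiv.subgroupCongr Fx_eqR).trans e₂)⟩

end

end Cfsg.Agent.Lib.Chev.TwD4
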