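import Cfsg.Agent.Lib.Chev.Sub.GenPM
import Cfsg.Prelude.Def_ChevAutomorphisms

/-! A graph-type automorphism on all root elements, one root length. -/

set_option autoImplicit false
set_option linter.unusedSimpArgs false
set_option linter.unusedVariables false
set_option linter.unusedSectionVars false

namespace Cfsg.Agent.Lib.Chev

open Cfsg Cfsg.Lie Matrix

variable {D : ChevalleyDatum} {F : Type*} [Field F]

/-- The table conditions on a symmetry. -/
structure GraphPerm (G : Good2 D) (π : Equiv.Perm (Fin D.rank)) : Prop where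
  lt : ∀ r, r < D.nroots → D.permRoot π r < D.nroots
  simple : ∀ i : Fin D.rank, D.permRoot π (D.simple i) = D.simple (π i)
  neg : ∀ i : Fin D.rank, D.permRoot π (D.neg (D.simple i)) = D.neg (D.simple (π i))
  comm : ∀ (i : Fin D.rank) (r : ℕ), r < D.nroots → D.permRoot π (G.W i r) = G.W (π i) (D.permRoot π r)

namespace GraphPerm

variable {G : Good2 D} {π : Equiv.Perm (Fin D.rank)} (A : GraphPerm G π)
include A

/-- The shape of the images of the root elements. -/
abbrev GR (G : Good2 D) (π : Equiv.Perm (Fin D.rank)) (φ : ↥(D.group F) ≃* ↥(D.group F)) (r : ℕ) : Prop :=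
  ∀ (hr : r < D.nroots), ∃ (hr' : D.permRoot π r < D.nroots) (ε : F), (ε = 1 ∨ ε = -1) ∧ ∀ t : F,
    ((φ (G.xG hr t) : ↥(D.group F)) : GL D.Idx F) = G.xg hr' (ε * t)

theorem all_roots (φ : ↥(D.group F) ≃* ↥(D.group F))
    (hφ : ∀ (g : ↥(D.group F)) (i : Fin D.rank) (t : F),
      (((g : GL D.Idx F) : Matrix D.Idx D.Idx F) = D.x F (D.simple i) t →
        ((φ g : GL D.Idx F) : Matrix D.Idx D.Idx F) = D.x F (D.simple (π i)) t) ∧
      (((g : GL D.Idx F) : Matrix D.Idx D.Idx F) = D.x F (D.neg (D.simple i)) t →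
        ((φ g : GL D.Idx F) : Matrix D.Idx D.Idx F) = D.x F (D.neg (D.simple (π i))) t))
    (r : ℕ) : GR G π φ r := by
  have hp : ∀ (i : Fin D.rank) (t : F), ((φ (G.xG (G.simple_lt i.isLt) t) : ↥(D.group F)) : GL D.Idx F) =
      G.xg (G.simple_lt (π i).isLt) t := by
    intro i t
    apply Units.ext
    exact (hφ _ i t).1 rfl
  have hq : ∀ (i : Fin D.rank) (t : F), ((φ (G.xG (G.neg_lt (G.simple_lt i.isLt)) t) : ↥(D.group F)) : GL D.Idx F) =
      G.xg (G.neg_lt (G.simple_lt (π i).isLt)) t := by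
    intro i t
    apply Units.ext
    exact (hφ _ i t).2 rfl
  have hnG : ∀ i : Fin D.rank, φ (G.nGGp i) = G.nGGp (π i) := by
    intro i
    have e : G.nGGp (F := F) i = G.xG (G.simple_lt i.isLt) 1 * G.xG (G.neg_lt (G.simple_lt i.isLt)) (-1) *
        G.xG (G.simple_lt i.isLt) 1 := Subtype.ext (G.nG_eq_xg i.val i.isLt)
    rw [e, map_mul, map_mul]
    apply Subtype.ext
    show ((φ _ : ↥(D.group F)) : GL D.Idx F) * ((φ _ : ↥(D.group F)) : GL D.Idx F) * ((φ _ : ↥(D.group F)) : GL D.Idx F) = _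
    rw [hp, hq]
    exact (G.nG_eq_xg (π i).val (π i).isLt).symm
  have hstep : ∀ (i : Fin D.rank) (r : ℕ), r < D.nroots → GR G π φ (G.W i r) → GR G π φ r := by
    intro i r hr h _
    have hw := G.W_lt i.isLt hr
    obtain ⟨hr', ε, hε, e⟩ := h hw
    have hS := sign_sq (F := F) (G.S_cases i.isLt hw)
    have hr2 : D.permRoot π r < D.nroots := A.lt r hr
    have e0 : ∀ t : F, G.xG hr t = G.nGGp i * G.xG hw (((G.S i (G.W i r) : ℤ) : F) * t) * (G.nGGp i)⁻¹ := by
      intro t
      apply Subtype.ext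
      show G.xg hr t = G.nG i * G.xg hw (((G.S i (G.W i r) : ℤ) : F) * t) * (G.nG i)⁻¹
      rw [G.nG_conj_x (F := F) i hw]
      apply Units.ext
      simp only [Good0.xg_val]
      rw [← mul_assoc, hS, one_mul, G.W_W i.isLt hr]
    have e9 : D.permRoot π (G.W i r) < D.nroots := A.lt _ hw
    have hS2 := G.S_cases (π i).isLt e9
    refine ⟨hr2, ((G.S (π i) (D.permRoot π (G.W i r)) : ℤ) : F) * (ε * ((G.S i (G.W i r) : ℤ) : F)), ?_, ?_⟩
    · rcases hS2 with h2 | h2 <;> rcases G.S_cases i.isLt hw with h3 | h3 <;> rcases hε with h4 | h4 <;>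
        simp [h2, h3, h4]
    · intro t
      rw [e0, map_mul, map_mul, map_inv, hnG]
      show G.nG (π i) * ((φ _ : ↥(D.group F)) : GL D.Idx F) * (G.nG (π i))⁻¹ = _
      rw [e, G.nG_conj_x (F := F) (π i) hr']
      apply Units.ext
      simp only [Good0.xg_val]
      have e8 := A.comm i (G.W i r) hw
      rw [G.W_W i.isLt hr] at e8
      rw [← e8]
      congr 1
      ring
  have key : ∀ r, r < D.nroots → Good2.NN D ≤ r → GR G π φ r ∧ GR G π φ (D.neg r) := by
    refine G.pos_induct ?_ ?_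
    · intro i hi
      constructor
      · intro _
        refine ⟨by rw [A.simple ⟨i, hi⟩]; exact G.simple_lt (π ⟨i, hi⟩).isLt, 1, Or.inl rfl, ?_⟩
        intro t
        rw [one_mul]
        have := hp ⟨i, hi⟩ t
        apply Units.ext
        have e2 := congrArg Units.val this
        simp only [Good0.xg_val] at e2 ⊢
        rw [A.simple ⟨i, hi⟩]
        exact e2
      · intro _
        refine ⟨by rw [A.neg ⟨i, hi⟩]; exact G.neg_lt (G.simple_lt (π ⟨i, hi⟩).isLt), 1, Or.inl rfl, ?_⟩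
        intro t
        rw [one_mul]
        have := hq ⟨i, hi⟩ t
        apply Units.ext
        have e2 := congrArg Units.val this
        simp only [Good0.xg_val] at e2 ⊢
        rw [A.neg ⟨i, hi⟩]
        exact e2
    · intro i r hi hr _ _ _ h
      refine ⟨hstep ⟨i, hi⟩ r hr h.1, hstep ⟨i, hi⟩ _ (G.neg_lt hr) ?_⟩
      show GR G π φ (G.W i (D.neg r))
      rw [G.W_neg hi hr]
      exact h.2
  intro hr
  by_cases hN : Good2.NN D ≤ r
  · exact (key r hr hN).1 hr
  · have h3 := (key (D.neg r) (G.neg_lt hr) (by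
      rw [G.neg_eq hr]
      have := G.NN_add
      omega)).2
    rw [G.neg_neg hr] at h3
    exact h3 hr

theorem main (φ : ↥(D.group F) ≃* ↥(D.group F))
    (hφ : ∀ (g : ↥(D.group F)) (i : Fin D.rank) (t : F),
      (((g : GL D.Idx F) : Matrix D.Idx D.Idx F) = D.x F (D.simple i) t →
        ((φ g : GL D.Idx F) : Matrix D.Idx D.Idx F) = D.x F (D.simple (π i)) t) ∧
      (((g : GL D.Idx F) : Matrix D.Idx D.Idx F) = D.x F (D.neg (D.simple i)) t →
        ((φ g : GL D.Idx F) : Matrix D.Idx D.Idx F) = D.x F (D.neg (D.simple (π i))) t))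
    (r : ℕ) (hr : r < D.nroots) :
    ∃ ε : F, (ε = 1 ∨ ε = -1) ∧ ∀ (g : ↥(D.group F)) (t : F),
      ((g : GL D.Idx F) : Matrix D.Idx D.Idx F) = D.x F r t →
        ((φ g : GL D.Idx F) : Matrix D.Idx D.Idx F) = D.x F (D.permRoot π r) (ε * t) := by
  obtain ⟨hr', ε, hε, e⟩ := A.all_roots φ hφ r hr
  refine ⟨ε, hε, ?_⟩
  intro g t hg
  have e1 : g = G.xG hr t := Subtype.ext (Units.ext hg)
  rw [e1, e]
  rfl

end GraphPerm

end Cfsg.Agent.Lib.Chev
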